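/-
The ternary code of length 12: an explicit parametrisation by six free coordinates.
-/
import Cfsg.Prelude.Def_SporadicCombinatorics

set_option autoImplicit false

namespace CfsgLib.Ternary

open Cfsg

/-- Parameters of a word. -/
abbrev P6 := ZMod 3 × ZMod 3 × ZMod 3 × ZMod 3 × ZMod 3 × ZMod 3

/-- The twelve coordinates of the word with parameters `a`. -/
def coordsL (a : P6) : List (ZMod 3) :=
  match a with
  | (x0, x1, x2, x3, x4, x6) =>
    [x0, x1, x2, x3, x4, x0 + x1 + x2 + 2 * x3 + 2 * x4, x6, 2 * x1 + x2 + 2 * x3 + x4 + x6,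
      x0 + 2 * x1 + x3 + 2 * x4 + x6, x0 + 2 * x1 + 2 * x2 + 2 * x3 + 2 * x6,
      x0 + x2 + x3 + x4 + 2 * x6, 2 * x0 + 2 * x1 + x2 + 2 * x4 + 2 * x6]

/-- Position of a point of the array. -/
def pidx (p : ArrayPt) : ℕ := 3 * p.1.val + p.2.val

/-- The word with parameters `a`. -/
def W (a : P6) : ArrayPt → ZMod 3 := fun p => (coordsL a).getD (pidx p) 0

theorem forall_pt {P : ArrayPt → Prop} (h00 : P (0,0)) (h01 : P (0,1)) (h02 : P (0,2))
    (h10 : P (1,0)) (h11 : P (1,1)) (h12 : P (1,2)) (h20 : P (2,0)) (h21 : P (2,1)) (h22 : P (2,2))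
    (h30 : P (3,0)) (h31 : P (3,1)) (h32 : P (3,2)) : ∀ p, P p := by
  rintro ⟨i, r⟩
  have hr : r = 0 ∨ r = 1 ∨ r = 2 := by revert r; decide
  fin_cases i <;> rcases hr with rfl | rfl | rfl <;> assumption

theorem sum_z3 {M : Type*} [AddCommMonoid M] (f : ZMod 3 → M) : ∑ r : ZMod 3, f r = f 0 + f 1 + f 2 := by
  have : (Finset.univ : Finset (ZMod 3)) = {0, 1, 2} := by decide
  rw [this, Finset.sum_insert (by decide), Finset.sum_insert (by decide), Finset.sum_singleton, add_assoc]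

theorem mem_tetra_iff (t : Fin 4 → ZMod 3) :
    t ∈ tetracode ↔ ∃ a b : ZMod 3, a • (![0, 1, 1, 1] : Fin 4 → ZMod 3) + b • ![1, 0, 1, 2] = t :=
  Submodule.mem_span_pair

theorem tsum_eq (x : ArrayPt → ZMod 3) (t : Fin 4 → ZMod 3) :
    ∑ i : Fin 4, x (i, t i) = x (0, t 0) + x (1, t 1) + x (2, t 2) + x (3, t 3) :=
  Fin.sum_univ_four _

theorem W_mem_aux : ∀ a : P6, (∀ i : Fin 4, ∑ r : ZMod 3, W a (i, r) = -(-(a.1 + a.2.1 + a.2.2.1))) ∧
    ∀ u v : ZMod 3, ∑ i : Fin 4, W a (i, ((u • ![0, 1, 1, 1] + v • ![1, 0, 1, 2] : Fin 4 → ZMod 3) i))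
      = -(a.1 + a.2.1 + a.2.2.1) := by
  decide +kernel

theorem W_mem (a : P6) : W a ∈ ternaryGolayCode := by
  refine ⟨-(a.1 + a.2.1 + a.2.2.1), (W_mem_aux a).1, ?_⟩
  intro t ht
  obtain ⟨u, v, rfl⟩ := (mem_tetra_iff t).mp ht
  exact (W_mem_aux a).2 u v

/-- The free coordinates of a word. -/
def info (x : ArrayPt → ZMod 3) : P6 := (x (0,0), x (0,1), x (0,2), x (1,0), x (1,1), x (2,0))

theorem info_W (a : P6) : info (W a) = a := by
  rcases a with ⟨a0, a1, a2, a3, a4, a6⟩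
  rfl

theorem W_injective : Function.Injective W := fun a b h => by
  rw [← info_W a, ← info_W b, h]

theorem eq_W_of_mem {x : ArrayPt → ZMod 3} (hx : x ∈ ternaryGolayCode) : x = W (info x) := by
  obtain ⟨s, hc, ht⟩ := hx
  have h3 : (3 : ZMod 3) = 0 := by decide
  have E0 : x (0,0) + x (0,1) + x (0,2) = -s := (sum_z3 _).symm.trans (hc 0)
  have E1 : x (1,0) + x (1,1) + x (1,2) = -s := (sum_z3 _).symm.trans (hc 1)
  have E2 : x (2,0) + x (2,1) + x (2,2) = -s := (sum_z3 _).symm.trans (hc 2)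
  have E3 : x (3,0) + x (3,1) + x (3,2) = -s := (sum_z3 _).symm.trans (hc 3)
  have E4 : x (0,0) + x (1,0) + x (2,0) + x (3,0) = s :=
    (tsum_eq x _).symm.trans (ht ![0,0,0,0] ((mem_tetra_iff _).mpr ⟨0, 0, by decide⟩))
  have E5 : x (0,1) + x (1,0) + x (2,1) + x (3,2) = s :=
    (tsum_eq x _).symm.trans (ht ![1,0,1,2] ((mem_tetra_iff _).mpr ⟨0, 1, by decide⟩))
  have E7 : x (0,0) + x (1,1) + x (2,1) + x (3,1) = s :=
    (tsum_eq x _).symm.trans (ht ![0,1,1,1] ((mem_tetra_iff _).mpr ⟨1, 0, by decide⟩))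
  have h5 : x (1,2) = x (0,0) + x (0,1) + x (0,2) + 2 * x (1,0) + 2 * x (1,1) := by
    linear_combination 2 * E0 + 1 * E1 + ((-1) * x (0,0) + (-1) * x (0,1) + (-1) * x (0,2) + (-1) * x (1,0) + (-1) * x (1,1) + (-1) * s) * h3
  have h7 : x (2,1) = 2 * x (0,1) + x (0,2) + 2 * x (1,0) + x (1,1) + x (2,0) := by
    linear_combination 2 * E0 + 1 * E3 + 2 * E4 + 2 * E5 + 2 * E7 + ((-2) * x (0,0) + (-2) * x (0,1) + (-1) * x (0,2) + (-2) * x (1,0) + (-1) * x (1,1) + (-1) * x (2,0) + (-1) * x (2,1) + (-1) * x (3,0) + (-1) * x (3,1) + (-1) * x (3,2) + (1) * s) * h3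
  have h8 : x (2,2) = x (0,0) + 2 * x (0,1) + x (1,0) + 2 * x (1,1) + x (2,0) := by
    linear_combination 1 * E2 + 2 * E3 + 1 * E4 + 1 * E5 + 1 * E7 + ((-1) * x (0,0) + (-1) * x (0,1) + (-1) * x (1,0) + (-1) * x (1,1) + (-1) * x (2,0) + (-1) * x (2,1) + (-1) * x (3,0) + (-1) * x (3,1) + (-1) * x (3,2)) * h3
  have h9 : x (3,0) = x (0,0) + 2 * x (0,1) + 2 * x (0,2) + 2 * x (1,0) + 2 * x (2,0) := by
    linear_combination 1 * E0 + 1 * E4 + ((-1) * x (0,0) + (-1) * x (0,1) + (-1) * x (0,2) + (-1) * x (1,0) + (-1) * x (2,0)) * h3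
  have h10 : x (3,1) = x (0,0) + x (0,2) + x (1,0) + x (1,1) + 2 * x (2,0) := by
    linear_combination 2 * E0 + 2 * E3 + 1 * E4 + 1 * E5 + 2 * E7 + ((-2) * x (0,0) + (-1) * x (0,1) + (-1) * x (0,2) + (-1) * x (1,0) + (-1) * x (1,1) + (-1) * x (2,0) + (-1) * x (2,1) + (-1) * x (3,0) + (-1) * x (3,1) + (-1) * x (3,2)) * h3
  have h11 : x (3,2) = 2 * x (0,0) + 2 * x (0,1) + x (0,2) + 2 * x (1,1) + 2 * x (2,0) := by
    linear_combination 2 * E0 + 2 * E3 + 1 * E4 + 2 * E5 + 1 * E7 + ((-2) * x (0,0) + (-2) * x (0,1) + (-1) * x (0,2) + (-1) * x (1,0) + (-1) * x (1,1) + (-1) * x (2,0) + (-1) * x (2,1) + (-1) * x (3,0) + (-1) * x (3,1) + (-1) * x (3,2)) * h3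
  refine forall_pt (P := fun p => x p = W (info x) p) rfl rfl rfl rfl rfl ?_ rfl ?_ ?_ ?_ ?_ ?_ |> funext
  · exact h5
  · exact h7
  · exact h8
  · exact h9
  · exact h10
  · exact h11

theorem mem_code_iff {x : ArrayPt → ZMod 3} : x ∈ ternaryGolayCode ↔ ∃ a, x = W a :=
  ⟨fun h => ⟨_, eq_W_of_mem h⟩, fun ⟨a, h⟩ => h ▸ W_mem a⟩

/-- Parameters are in bijection with the code. -/
noncomputable def codeEquiv : P6 ≃ ↥ternaryGolayCode :=
  Equiv.ofBijective (fun a => ⟨W a, W_mem a⟩)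
    ⟨fun a b h => W_injective (congrArg Subtype.val h),
     fun ⟨x, hx⟩ => ⟨info x, Subtype.ext (eq_W_of_mem hx).symm⟩⟩

theorem card_code : Nat.card ↥ternaryGolayCode = 729 := by
  rw [← Nat.card_congr codeEquiv, Nat.card_eq_fintype_card]
  simp only [Fintype.card_prod, ZMod.card]

theorem W_zero : W (0, 0, 0, 0, 0, 0) = 0 := by
  funext p
  revert p
  decide

theorem weight_W : ∀ a : P6, a ≠ (0, 0, 0, 0, 0, 0) →
    (ternarySupport (W a)).card = 6 ∨ (ternarySupport (W a)).card = 9 ∨ (ternarySupport (W a)).card = 12 := by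
  decide +kernel

theorem count6 : (Finset.univ.filter fun a : P6 => (ternarySupport (W a)).card = 6).card = 264 := by
  decide +kernel
theorem count9 : (Finset.univ.filter fun a : P6 => (ternarySupport (W a)).card = 9).card = 440 := by
  decide +kernel
theorem count12 : (Finset.univ.filter fun a : P6 => (ternarySupport (W a)).card = 12).card = 24 := by
  decide +kernel

theorem ncard_weight (n : ℕ) :
    {x : ArrayPt → ZMod 3 | x ∈ ternaryGolayCode ∧ (ternarySupport x).card = n}.ncard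
      = (Finset.univ.filter fun a : P6 => (ternarySupport (W a)).card = n).card := by
  have : {x : ArrayPt → ZMod 3 | x ∈ ternaryGolayCode ∧ (ternarySupport x).card = n}
      = W '' ((Finset.univ.filter fun a : P6 => (ternarySupport (W a)).card = n : Finset P6) : Set P6) := by
    ext x
    simp only [Set.mem_setOf_eq, Set.mem_image, Finset.coe_filter, Finset.mem_univ, true_and]
    constructor
    · rintro ⟨hx, h⟩
      refine ⟨info x, ?_, (eq_W_of_mem hx).symm⟩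
      rwa [← eq_W_of_mem hx]
    · rintro ⟨a, h, rfl⟩
      exact ⟨W_mem a, h⟩
  rw [this, Set.ncard_image_of_injective _ W_injective, Set.ncard_coe_finset]

theorem weight_of_mem {x : ArrayPt → ZMod 3} (hx : x ∈ ternaryGolayCode) (h0 : x ≠ 0) :
    (ternarySupport x).card = 6 ∨ (ternarySupport x).card = 9 ∨ (ternarySupport x).card = 12 := by
  rw [eq_W_of_mem hx]
  apply weight_W
  intro h
  apply h0
  rw [eq_W_of_mem hx, h, W_zero]

end CfsgLib.Ternary
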