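/-
The hexads of the ternary code of length 12.
-/
import Cfsg.Agent.Lib.Ternary.Basic
import Cfsg.Agent.Lib.Steiner.Basic

set_option autoImplicit false

namespace CfsgLib.Ternary

open Cfsg

/-- The mask of the support of the word with parameters `a`. -/
def msk (a : P6) : ℕ :=
  ((coordsL a).zipIdx.foldr (fun q acc => if q.1 = 0 then acc else acc + 2 ^ q.2) 0)

/-- The subset of the array coded by a mask. -/
def fsT (m : ℕ) : Finset ArrayPt := Finset.univ.filter fun p => m.testBit (pidx p) = true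

theorem msk_spec : ∀ (a : P6) (p : ArrayPt), (W a p ≠ 0) ↔ (msk a).testBit (pidx p) = true := by
  decide +kernel

theorem supp_W (a : P6) : ternarySupport (W a) = fsT (msk a) := by
  ext p
  simp only [ternarySupport, fsT, Finset.mem_filter, Finset.mem_univ, true_and]
  exact msk_spec a p

/-- The masks of the hexads. -/
def HX : List ℕ := [63, 222, 237, 243, 347, 366, 373, 413, 427, 438, 455, 504, 591, 630, 633, 667, 679, 700, 725, 746, 791, 813, 826, 860, 867, 910, 945, 969, 978, 996, 1117, 1127, 1146, 1175, 1198, 1209, 1227, 1268, 1295, 1331, 1340, 1366, 1385, 1434, 1445, 1484, 1489, 1506, 1566, 1579, 1589, 1619, 1644, 1677, 1714, 1734, 1752, 1761, 1817, 1830, 1861, 1866, 1904, 1923, 1940, 1960, 2135, 2155, 2172, 2191, 2229, 2234, 2265, 2278, 2334, 2343, 2361, 2381, 2418, 2451, 2476, 2506, 2516, 2529, 2589, 2606, 2611, 2650, 2661, 2710, 2729, 2755, 2764, 2800, 2827, 2868, 2886, 2897, 2920, 2949, 2968, 2978, 3099, 3117, 3126, 3150, 3185, 3228, 3235, 3269, 3282, 3304,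 3349, 3370, 3395, 3416, 3428, 3462, 3465, 3504, 3591, 3640, 3657, 3668, 3682, 3722, 3729, 3748, 3852, 3858, 3873, 4032]

theorem HX_complete : ∀ a : P6, (fsT (msk a)).card = 6 → msk a ∈ HX := by
  decide +kernel

theorem HX_sound : ∀ m ∈ HX, ∃ a : P6, msk a = m ∧ (fsT m).card = 6 := by
  decide +kernel

theorem HX_nodup : HX.Nodup := by decide +kernel

theorem HX_length : HX.length = 132 := by decide +kernel

theorem HX_lt : ∀ m ∈ HX, m < 4096 := by decide +kernel

theorem HX_pairs : ∀ u ∈ HX, ∀ v ∈ HX, u ≠ v → (fsT (u &&& v)).card ≤ 4 := by decide +kernel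

theorem fsT_land (u v : ℕ) : fsT (u &&& v) = fsT u ∩ fsT v := by
  ext p; simp [fsT, Nat.testBit_and]

theorem pidx_lt (p : ArrayPt) : pidx p < 12 := by revert p; decide

theorem pidx_surj : ∀ i : Fin 12, ∃ p : ArrayPt, pidx p = i.val := by decide

theorem fsT_inj {u v : ℕ} (hu : u < 4096) (hv : v < 4096) (h : fsT u = fsT v) : u = v := by
  apply Nat.eq_of_testBit_eq
  intro i
  by_cases hi : i < 12
  · obtain ⟨p, hp⟩ := pidx_surj ⟨i, hi⟩
    have := congrArg (fun s => p ∈ s) h
    simp only [fsT, Finset.mem_filter, Finset.mem_univ, true_and, hp, eq_iff_iff] at this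
    cases hu' : u.testBit i <;> cases hv' : v.testBit i <;> simp_all
  · have h2 : (2 : ℕ) ^ 12 ≤ 2 ^ i := Nat.pow_le_pow_right (by norm_num) (by omega)
    have e : (2 : ℕ) ^ 12 = 4096 := by norm_num
    rw [Nat.testBit_lt_two_pow (lt_of_lt_of_le (e ▸ hu) h2), Nat.testBit_lt_two_pow (lt_of_lt_of_le (e ▸ hv) h2)]

/-- The family in the statements. -/
abbrev hexadSet : Set (Finset ArrayPt) :=
  {h : Finset ArrayPt | ∃ x ∈ ternaryGolayCode, ternarySupport x = h ∧ h.card = 6}

theorem hexadSet_eq : hexadSet = fsT '' (HX.toFinset : Set ℕ) := by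
  ext h
  simp only [Set.mem_setOf_eq, Set.mem_image, List.coe_toFinset]
  constructor
  · rintro ⟨x, hx, rfl, h6⟩
    rw [eq_W_of_mem hx, supp_W] at h6 ⊢
    exact ⟨_, HX_complete _ h6, rfl⟩
  · rintro ⟨m, hm, rfl⟩
    obtain ⟨a, rfl, h6⟩ := HX_sound m hm
    exact ⟨W a, W_mem a, supp_W a, h6⟩

theorem hexads_ncard : hexadSet.ncard = 132 := by
  rw [hexadSet_eq, Set.ncard_image_of_injOn, Set.ncard_coe_finset, List.toFinset_card_of_nodup HX_nodup, HX_length]
  intro u hu v hv h
  simp only [List.coe_toFinset, Set.mem_setOf_eq] at hu hv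
  exact fsT_inj (HX_lt u hu) (HX_lt v hv) h

theorem hexads_steiner : IsSteinerSystem 5 6 hexadSet := by
  refine CfsgLib.Steiner.steiner_of_count (by rintro b ⟨_, _, _, h⟩; exact h) ?_ ?_
  · intro b hb c hc s hs hsb hsc
    rw [hexadSet_eq] at hb hc
    obtain ⟨u, hu, rfl⟩ := hb
    obtain ⟨v, hv, rfl⟩ := hc
    simp only [List.coe_toFinset, Set.mem_setOf_eq] at hu hv
    by_contra hne
    have huv : u ≠ v := fun h => hne (by rw [h])
    have h4 := HX_pairs u hu v hv huv
    rw [fsT_land] at h4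
    have h5 : s.card ≤ (fsT u ∩ fsT v).card := Finset.card_le_card (Finset.subset_inter hsb hsc)
    omega
  · rw [hexads_ncard]
    decide

theorem two_pointsM : ∀ p q : ArrayPt, ∃ m ∈ HX, m.testBit (pidx p) = true ∧ m.testBit (pidx q) = true := by
  decide +kernel

/-- Any two points lie together on a word of weight six. -/
theorem two_points (p q : ArrayPt) : ∃ a : P6, (ternarySupport (W a)).card = 6 ∧ W a p ≠ 0 ∧ W a q ≠ 0 := by
  obtain ⟨m, hm, hp, hq⟩ := two_pointsM p q
  obtain ⟨a, rfl, h6⟩ := HX_sound m hm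
  exact ⟨a, by rw [supp_W]; exact h6, (msk_spec a p).mpr hp, (msk_spec a q).mpr hq⟩

theorem W_decomp : ∀ (a : P6) (p : ArrayPt), W a p = a.1 * W (1,0,0,0,0,0) p + a.2.1 * W (0,1,0,0,0,0) p
    + a.2.2.1 * W (0,0,1,0,0,0) p + a.2.2.2.1 * W (0,0,0,1,0,0) p + a.2.2.2.2.1 * W (0,0,0,0,1,0) p
    + a.2.2.2.2.2 * W (0,0,0,0,0,1) p := by
  decide +kernel

theorem basis_orth : ∀ b : P6, ∑ p, W (1,0,0,0,0,0) p * W b p = 0 ∧ ∑ p, W (0,1,0,0,0,0) p * W b p = 0 ∧
    ∑ p, W (0,0,1,0,0,0) p * W b p = 0 ∧ ∑ p, W (0,0,0,1,0,0) p * W b p = 0 ∧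
    ∑ p, W (0,0,0,0,1,0) p * W b p = 0 ∧ ∑ p, W (0,0,0,0,0,1) p * W b p = 0 := by
  decide +kernel

theorem orth (x y : ArrayPt → ZMod 3) (hx : x ∈ ternaryGolayCode) (hy : y ∈ ternaryGolayCode) :
    ∑ p, x p * y p = 0 := by
  obtain ⟨a, rfl⟩ := mem_code_iff.mp hx
  obtain ⟨b, rfl⟩ := mem_code_iff.mp hy
  obtain ⟨h0, h1, h2, h3, h4, h5⟩ := basis_orth b
  simp only [W_decomp a, add_mul, Finset.sum_add_distrib, mul_assoc, ← Finset.mul_sum, h0, h1, h2, h3, h4, h5,
    mul_zero, add_zero]

theorem six_le {x : ArrayPt → ZMod 3} (hx : x ∈ ternaryGolayCode) (h0 : x ≠ 0) :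
    6 ≤ (ternarySupport x).card := by
  rcases weight_of_mem hx h0 with h | h | h <;> omega

theorem unit_cases : ∀ u : (ZMod 3)ˣ, (u : ZMod 3) = 1 ∨ (u : ZMod 3) = -1 := by
  decide

/-- A sign change preserving the code is constant on the support of a word of weight six. -/
theorem sign_const {c : ArrayPt → (ZMod 3)ˣ}
    (h : ∀ x ∈ ternaryGolayCode, monomialMap 1 c x ∈ ternaryGolayCode)
    {x : ArrayPt → ZMod 3} (hx : x ∈ ternaryGolayCode) (h6 : (ternarySupport x).card = 6) :
    (∀ p, x p ≠ 0 → (c p : ZMod 3) = 1) ∨ (∀ p, x p ≠ 0 → (c p : ZMod 3) = -1) := by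
  have hy := h x hx
  have hy' : ∀ p, monomialMap 1 c x p = (c p : ZMod 3) * x p := fun p => rfl
  set y := monomialMap 1 c x with hydef
  have hd : x - y ∈ ternaryGolayCode := Submodule.sub_mem _ hx hy
  have hs : x + y ∈ ternaryGolayCode := Submodule.add_mem _ hx hy
  have h2 : (2 : ZMod 3) ≠ 0 := by decide
  have hdis : Disjoint (ternarySupport (x - y)) (ternarySupport (x + y)) := by
    rw [Finset.disjoint_left]
    intro p hp1 hp2
    simp only [ternarySupport, Finset.mem_filter, Finset.mem_univ, true_and, Pi.sub_apply, Pi.add_apply, hy'] at hp1 hp2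
    rcases unit_cases (c p) with hc | hc <;> rw [hc] at hp1 hp2
    · apply hp1; ring
    · apply hp2; ring
  have hsub : ternarySupport (x - y) ∪ ternarySupport (x + y) ⊆ ternarySupport x := by
    intro p hp
    simp only [ternarySupport, Finset.mem_union, Finset.mem_filter, Finset.mem_univ, true_and, Pi.sub_apply,
      Pi.add_apply, hy'] at hp ⊢
    intro h0
    rcases hp with hp | hp <;> apply hp <;> rw [h0] <;> ring
  have hcard := Finset.card_le_card hsub
  rw [Finset.card_union_of_disjoint hdis, h6] at hcard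
  by_cases hd0 : x - y = 0
  · left
    intro p hp
    have h1 : x p - (c p : ZMod 3) * x p = 0 := by
      have := congrFun hd0 p
      simpa [hy'] using this
    have h3 : (1 - (c p : ZMod 3)) * x p = 0 := by linear_combination h1
    rcases mul_eq_zero.mp h3 with h4 | h4
    · linear_combination -h4
    · exact absurd h4 hp
  · by_cases hs0 : x + y = 0
    · right
      intro p hp
      have h1 : x p + (c p : ZMod 3) * x p = 0 := by
        have := congrFun hs0 p
        simpa [hy'] using this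
      have h3 : (1 + (c p : ZMod 3)) * x p = 0 := by linear_combination h1
      rcases mul_eq_zero.mp h3 with h4 | h4
      · linear_combination h4
      · exact absurd h4 hp
    · have := six_le hd hd0
      have := six_le hs hs0
      omega

theorem sign_cases {c : ArrayPt → (ZMod 3)ˣ}
    (h : ∀ x ∈ ternaryGolayCode, monomialMap 1 c x ∈ ternaryGolayCode) :
    (∀ p, c p = 1) ∨ (∀ p, c p = -1) := by
  have hkey : ∀ p q, (c p : ZMod 3) = c q := by
    intro p q
    obtain ⟨a, h6, hp, hq⟩ := two_points p q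
    rcases sign_const h (W_mem a) h6 with h1 | h1
    · rw [h1 p hp, h1 q hq]
    · rw [h1 p hp, h1 q hq]
  rcases unit_cases (c (0, 0)) with h0 | h0
  · left
    intro p
    apply Units.ext
    rw [hkey p (0, 0), h0]; rfl
  · right
    intro p
    apply Units.ext
    rw [hkey p (0, 0), h0]; rfl

end CfsgLib.Ternary
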