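/-
The monomial automorphism group of the ternary code of length 12.
-/
import Cfsg.Agent.Lib.Ternary.Hexads
import Cfsg.Agent.Lib.Hexa.Mono
import Cfsg.Agent.Lib.StCert.AutM12

set_option autoImplicit false
set_option linter.unusedVariables false
set_option linter.unusedSectionVars false
set_option maxRecDepth 100000

namespace CfsgLib.Ternary

open Cfsg CfsgLib.Mono
open scoped Pointwise

def ap (i : Fin 12) : ArrayPt :=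
  (⟨i.val / 3 % 4, Nat.mod_lt _ (by norm_num)⟩, (Fin.mk (i.val % 3) (Nat.mod_lt _ (by norm_num)) : Fin 3))

def ia (p : ArrayPt) : Fin 12 := ⟨pidx p, pidx_lt p⟩

theorem ia_ap : ∀ i, ia (ap i) = i := by decide +kernel
theorem ap_ia : ∀ p, ap (ia p) = p := by decide +kernel

abbrev Tab12 := List ℕ × List ℕ × List ℕ

def rp (r : Tab12) (i : Fin 12) : Fin 12 := ⟨r.1.getD i.val 0 % 12, Nat.mod_lt _ (by norm_num)⟩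
def rq (r : Tab12) (i : Fin 12) : Fin 12 := ⟨r.2.1.getD i.val 0 % 12, Nat.mod_lt _ (by norm_num)⟩
def rc (r : Tab12) (i : Fin 12) : ZMod 3 := ((r.2.2.getD i.val 0 : ℕ) : ZMod 3)

/-- Explicit signed permutations preserving the code. -/
def rowsT : List Tab12 := [
  ([0, 1, 2, 3, 4, 5, 6, 7, 8, 9, 10, 11], [0, 1, 2, 3, 4, 5, 6, 7, 8, 9, 10, 11], [1, 1, 1, 1, 1, 1, 1, 1, 1, 1, 1, 1]),
  ([1, 0, 2, 3, 4, 5, 11, 9, 10, 7, 8, 6], [1, 0, 2, 3, 4, 5, 11, 9, 10, 7, 8, 6], [1, 1, 1, 1, 1, 1, 1, 1, 1, 1, 1, 1]),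
  ([2, 0, 1, 3, 4, 5, 8, 6, 7, 10, 11, 9], [1, 2, 0, 3, 4, 5, 7, 8, 6, 11, 9, 10], [1, 1, 1, 1, 1, 1, 1, 1, 1, 1, 1, 1]),
  ([3, 0, 1, 2, 4, 5, 10, 7, 6, 8, 9, 11], [1, 2, 3, 0, 4, 5, 8, 7, 9, 10, 6, 11], [1, 1, 2, 2, 1, 1, 2, 2, 1, 2, 1, 2]),
  ([4, 0, 1, 2, 3, 5, 6, 9, 10, 11, 7, 8], [1, 2, 3, 4, 0, 5, 6, 10, 11, 7, 8, 9], [1, 1, 2, 1, 2, 1, 1, 2, 2, 2, 2, 1]),
  ([5, 0, 1, 2, 3, 4, 9, 6, 8, 7, 11, 10], [1, 2, 3, 4, 5, 0, 7, 9, 8, 6, 11, 10], [1, 1, 2, 1, 1, 2, 2, 1, 2, 1, 2, 2]),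
  ([6, 0, 1, 2, 3, 9, 5, 4, 7, 10, 8, 11], [1, 2, 3, 4, 7, 6, 0, 8, 10, 5, 9, 11], [1, 2, 1, 1, 2, 1, 2, 2, 2, 1, 1, 2]),
  ([7, 0, 1, 2, 3, 11, 10, 8, 9, 4, 5, 6], [1, 2, 3, 4, 9, 10, 11, 0, 7, 8, 6, 5], [1, 2, 2, 2, 2, 1, 1, 1, 1, 1, 2, 2]),
  ([8, 0, 1, 2, 3, 10, 7, 11, 4, 6, 9, 5], [1, 2, 3, 4, 8, 11, 9, 6, 0, 10, 5, 7], [1, 1, 1, 2, 1, 1, 2, 2, 1, 1, 2, 1]),
  ([9, 0, 1, 2, 3, 6, 4, 5, 11, 8, 10, 7], [1, 2, 3, 4, 6, 7, 5, 11, 9, 0, 10, 8], [1, 2, 1, 1, 1, 2, 1, 2, 1, 2, 2, 2]),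
  ([10, 0, 1, 2, 3, 8, 11, 7, 5, 9, 6, 4], [1, 2, 3, 4, 11, 8, 10, 7, 5, 9, 0, 6], [1, 1, 1, 2, 1, 1, 1, 1, 2, 2, 1, 2]),
  ([11, 0, 1, 2, 3, 7, 8, 10, 6, 5, 4, 9], [1, 2, 3, 4, 10, 9, 8, 5, 6, 11, 7, 0], [1, 2, 2, 2, 1, 2, 1, 2, 2, 1, 1, 1]),
  ([0, 2, 1, 3, 4, 5, 9, 10, 11, 6, 7, 8], [0, 2, 1, 3, 4, 5, 9, 10, 11, 6, 7, 8], [1, 1, 1, 1, 1, 1, 1, 1, 1, 1, 1, 1]),
  ([0, 3, 1, 2, 4, 5, 11, 8, 9, 7, 6, 10], [0, 2, 3, 1, 4, 5, 10, 9, 7, 8, 11, 6], [1, 1, 2, 2, 1, 1, 2, 2, 1, 2, 1, 2]),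
  ([0, 4, 1, 2, 3, 5, 8, 11, 7, 9, 10, 6], [0, 2, 3, 4, 1, 5, 11, 8, 6, 9, 10, 7], [1, 1, 2, 1, 2, 1, 1, 2, 2, 2, 2, 1]),
  ([0, 5, 1, 2, 3, 4, 10, 7, 11, 6, 8, 9], [0, 2, 3, 4, 5, 1, 9, 7, 10, 11, 6, 8], [1, 1, 2, 1, 1, 2, 2, 1, 2, 1, 2, 2]),
  ([0, 6, 1, 2, 3, 9, 11, 10, 8, 4, 7, 5], [0, 2, 3, 4, 9, 11, 1, 10, 8, 5, 7, 6], [1, 2, 1, 1, 2, 1, 2, 2, 2, 1, 1, 2]),
  ([0, 7, 1, 2, 3, 11, 6, 4, 5, 8, 9, 10], [0, 2, 3, 4, 7, 8, 6, 1, 9, 10, 11, 5], [1, 2, 2, 2, 2, 1, 1, 1, 1, 1, 2, 2]),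
  ([0, 8, 1, 2, 3, 10, 5, 6, 9, 11, 4, 7], [0, 2, 3, 4, 10, 6, 7, 11, 1, 8, 5, 9], [1, 1, 1, 2, 1, 1, 2, 2, 1, 1, 2, 1]),
  ([0, 9, 1, 2, 3, 6, 7, 8, 10, 5, 11, 4], [0, 2, 3, 4, 11, 9, 5, 6, 7, 1, 8, 10], [1, 2, 1, 1, 1, 2, 1, 2, 1, 2, 2, 2]),
  ([0, 10, 1, 2, 3, 8, 4, 9, 6, 7, 5, 11], [0, 2, 3, 4, 6, 10, 8, 9, 5, 7, 1, 11], [1, 1, 1, 2, 1, 1, 1, 1, 2, 2, 1, 2]),
  ([0, 11, 1, 2, 3, 7, 9, 5, 4, 10, 6, 8], [0, 2, 3, 4, 8, 7, 10, 5, 11, 6, 9, 1], [1, 2, 2, 2, 1, 2, 1, 2, 2, 1, 1, 1]),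
  ([0, 1, 3, 2, 4, 5, 7, 6, 10, 11, 8, 9], [0, 1, 3, 2, 4, 5, 7, 6, 10, 11, 8, 9], [1, 1, 2, 2, 1, 1, 2, 2, 1, 2, 1, 2]),
  ([0, 1, 4, 2, 3, 5, 9, 10, 6, 8, 11, 7], [0, 1, 3, 4, 2, 5, 8, 11, 9, 6, 7, 10], [1, 1, 2, 1, 2, 1, 1, 2, 2, 2, 2, 1]),
  ([0, 1, 5, 2, 3, 4, 6, 8, 9, 10, 7, 11], [0, 1, 3, 4, 5, 2, 6, 10, 7, 8, 9, 11], [1, 1, 2, 1, 1, 2, 2, 1, 2, 1, 2, 2]),
  ([0, 1, 6, 2, 3, 9, 4, 7, 5, 11, 10, 8], [0, 1, 3, 4, 6, 8, 2, 7, 11, 5, 10, 9], [1, 2, 1, 1, 2, 1, 2, 2, 2, 1, 1, 2]),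
  ([0, 1, 7, 2, 3, 11, 8, 9, 10, 6, 4, 5], [0, 1, 3, 4, 10, 11, 9, 2, 6, 7, 8, 5], [1, 2, 2, 2, 2, 1, 1, 1, 1, 1, 2, 2]),
  ([0, 1, 8, 2, 3, 10, 11, 4, 7, 5, 6, 9], [0, 1, 3, 4, 7, 9, 10, 8, 2, 11, 5, 6], [1, 1, 1, 2, 1, 1, 2, 2, 1, 1, 2, 1]),
  ([0, 1, 9, 2, 3, 6, 5, 11, 4, 7, 8, 10], [0, 1, 3, 4, 8, 6, 5, 9, 10, 2, 11, 7], [1, 2, 1, 1, 1, 2, 1, 2, 1, 2, 2, 2]),
  ([0, 1, 10, 2, 3, 8, 7, 5, 11, 4, 9, 6], [0, 1, 3, 4, 9, 7, 11, 6, 5, 10, 2, 8], [1, 1, 1, 2, 1, 1, 1, 1, 2, 2, 1, 2]),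
  ([0, 1, 11, 2, 3, 7, 10, 6, 8, 9, 5, 4], [0, 1, 3, 4, 11, 10, 7, 5, 8, 9, 6, 2], [1, 2, 2, 2, 1, 2, 1, 2, 2, 1, 1, 1]),
  ([0, 1, 2, 4, 3, 5, 10, 9, 11, 7, 6, 8], [0, 1, 2, 4, 3, 5, 10, 9, 11, 7, 6, 8], [1, 1, 1, 1, 1, 1, 1, 1, 1, 1, 1, 1]),
  ([0, 1, 2, 5, 3, 4, 8, 6, 7, 11, 9, 10], [0, 1, 2, 4, 5, 3, 7, 8, 6, 10, 11, 9], [1, 1, 1, 1, 1, 1, 1, 1, 1, 1, 1, 1]),
  ([0, 1, 2, 6, 3, 9, 7, 4, 10, 8, 5, 11], [0, 1, 2, 4, 7, 10, 3, 6, 9, 5, 8, 11], [1, 2, 2, 1, 1, 1, 1, 1, 1, 1, 1, 1]),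
  ([0, 1, 2, 7, 3, 11, 9, 8, 4, 5, 10, 6], [0, 1, 2, 4, 8, 9, 11, 3, 7, 6, 10, 5], [1, 2, 1, 2, 2, 2, 2, 2, 2, 2, 2, 2]),
  ([0, 1, 2, 8, 3, 10, 4, 11, 6, 9, 7, 5], [0, 1, 2, 4, 6, 11, 8, 10, 3, 9, 5, 7], [1, 1, 2, 2, 2, 2, 2, 2, 2, 2, 2, 2]),
  ([0, 1, 2, 9, 3, 6, 11, 5, 8, 10, 4, 7], [0, 1, 2, 4, 10, 7, 5, 11, 8, 3, 9, 6], [1, 2, 2, 1, 1, 1, 1, 1, 1, 1, 1, 1]),
  ([0, 1, 2, 10, 3, 8, 5, 7, 9, 6, 11, 4], [0, 1, 2, 4, 11, 6, 9, 7, 5, 8, 3, 10], [1, 1, 2, 2, 2, 2, 2, 2, 2, 2, 2, 2]),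
  ([0, 1, 2, 11, 3, 7, 6, 10, 5, 4, 8, 9], [0, 1, 2, 4, 9, 8, 6, 5, 10, 11, 7, 3], [1, 2, 1, 2, 2, 2, 2, 2, 2, 2, 2, 2]),
  ([0, 1, 2, 3, 5, 4, 9, 11, 10, 6, 8, 7], [0, 1, 2, 3, 5, 4, 9, 11, 10, 6, 8, 7], [1, 1, 1, 1, 1, 1, 1, 1, 1, 1, 1, 1]),
  ([0, 1, 2, 3, 6, 9, 5, 8, 11, 4, 7, 10], [0, 1, 2, 3, 9, 6, 4, 10, 7, 5, 11, 8], [1, 2, 2, 1, 1, 1, 1, 1, 1, 1, 1, 1]),
  ([0, 1, 2, 3, 7, 11, 10, 5, 6, 8, 9, 4], [0, 1, 2, 3, 11, 7, 8, 4, 9, 10, 6, 5], [1, 2, 1, 2, 2, 2, 2, 2, 2, 2, 2, 2]),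
  ([0, 1, 2, 3, 8, 10, 7, 9, 5, 11, 4, 6], [0, 1, 2, 3, 10, 8, 11, 6, 4, 7, 5, 9], [1, 1, 2, 2, 2, 2, 2, 2, 2, 2, 2, 2]),
  ([0, 1, 2, 3, 9, 6, 4, 10, 7, 5, 11, 8], [0, 1, 2, 3, 6, 9, 5, 8, 11, 4, 7, 10], [1, 2, 2, 1, 1, 1, 1, 1, 1, 1, 1, 1]),
  ([0, 1, 2, 3, 10, 8, 11, 6, 4, 7, 5, 9], [0, 1, 2, 3, 8, 10, 7, 9, 5, 11, 4, 6], [1, 1, 2, 2, 2, 2, 2, 2, 2, 2, 2, 2]),
  ([0, 1, 2, 3, 11, 7, 8, 4, 9, 10, 6, 5], [0, 1, 2, 3, 7, 11, 10, 5, 6, 8, 9, 4], [1, 2, 1, 2, 2, 2, 2, 2, 2, 2, 2, 2])]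

theorem rows_perm : ∀ r ∈ rowsT, (∀ i, rq r (rp r i) = i) ∧ (∀ i, rp r (rq r i) = i) ∧ (∀ i, rc r i ≠ 0) := by
  decide +kernel

/-- The image of a word under a row. -/
def imgW (r : Tab12) (a : P6) : ArrayPt → ZMod 3 := fun q => rc r (ia q) * W a (ap (rq r (ia q)))

/-- The basis of parameters. -/
def bas : Fin 6 → P6 := ![(1, 0, 0, 0, 0, 0), (0, 1, 0, 0, 0, 0), (0, 0, 1, 0, 0, 0), (0, 0, 0, 1, 0, 0), (0, 0, 0, 0, 1, 0), (0, 0, 0, 0, 0, 1)]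

theorem rows_pres : ∀ r ∈ rowsT, ∀ t : Fin 6, ∀ p, imgW r (bas t) p = W (info (imgW r (bas t))) p := by
  decide +kernel

theorem W_basis : ∀ (a : P6) (p : ArrayPt), W a p = a.1 * W (bas 0) p + a.2.1 * W (bas 1) p + a.2.2.1 * W (bas 2) p +
    a.2.2.2.1 * W (bas 3) p + a.2.2.2.2.1 * W (bas 4) p + a.2.2.2.2.2 * W (bas 5) p := by
  decide +kernel

theorem mm_add {α F : Type*} [Field F] (σ : Equiv.Perm α) (c : α → Fˣ) (x y : α → F) :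
    monomialMap σ c (x + y) = monomialMap σ c x + monomialMap σ c y := by
  funext i
  simp [monomialMap, mul_add]

theorem mm_smul {α F : Type*} [Field F] (σ : Equiv.Perm α) (c : α → Fˣ) (a : F) (x : α → F) :
    monomialMap σ c (a • x) = a • monomialMap σ c x := by
  funext i
  simp [monomialMap, mul_left_comm]

theorem lvl0 : ∀ q : Fin 12, ∃ r ∈ rowsT, rp r 0 = q := by decide +kernel
theorem lvl1 : ∀ q : Fin 12, q ≠ 0 → ∃ r ∈ rowsT, rp r 0 = 0 ∧ rp r 1 = q := by decide +kernel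
theorem lvl2 : ∀ q : Fin 12, q ≠ 0 → q ≠ 1 → ∃ r ∈ rowsT, rp r 0 = 0 ∧ rp r 1 = 1 ∧ rp r 2 = q := by decide +kernel
theorem lvl3 : ∀ q : Fin 12, q ≠ 0 → q ≠ 1 → q ≠ 2 → ∃ r ∈ rowsT, rp r 0 = 0 ∧ rp r 1 = 1 ∧ rp r 2 = 2 ∧ rp r 3 = q := by
  decide +kernel
theorem lvl4 : ∀ q : Fin 12, q ≠ 0 → q ≠ 1 → q ≠ 2 → q ≠ 3 →
    ∃ r ∈ rowsT, rp r 0 = 0 ∧ rp r 1 = 1 ∧ rp r 2 = 2 ∧ rp r 3 = 3 ∧ rp r 4 = q := by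
  decide +kernel

theorem row_mem (r : Tab12) (hr : r ∈ rowsT) :
    ∃ σ ∈ monoSub ternaryGolayCode, ∀ i, σ (ap i) = ap (rp r i) := by
  obtain ⟨h1, h2, h3⟩ := rows_perm r hr
  let σ : Equiv.Perm ArrayPt :=
    { toFun := fun p => ap (rp r (ia p))
      invFun := fun p => ap (rq r (ia p))
      left_inv := fun p => by
        show ap (rq r (ia (ap (rp r (ia p))))) = p
        rw [ia_ap, h1, ap_ia]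
      right_inv := fun p => by
        show ap (rp r (ia (ap (rq r (ia p))))) = p
        rw [ia_ap, h2, ap_ia] }
  refine ⟨σ, ?_, fun i => ?_⟩
  · refine mem_monoSub.mpr ⟨fun p => Units.mk0 (rc r (ia p)) (h3 _), fun x hx => ?_⟩
    obtain ⟨a, rfl⟩ := mem_code_iff.mp hx
    have himg : ∀ t : Fin 6, monomialMap σ (fun p => Units.mk0 (rc r (ia p)) (h3 _)) (W (bas t)) ∈ ternaryGolayCode := by
      intro t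
      have e : monomialMap σ (fun p => Units.mk0 (rc r (ia p)) (h3 _)) (W (bas t)) = imgW r (bas t) := rfl
      rw [e]
      have e2 : imgW r (bas t) = W (info (imgW r (bas t))) := funext (rows_pres r hr t)
      rw [e2]
      exact W_mem _
    have e3 : W a = a.1 • W (bas 0) + a.2.1 • W (bas 1) + a.2.2.1 • W (bas 2) + a.2.2.2.1 • W (bas 3) +
        a.2.2.2.2.1 • W (bas 4) + a.2.2.2.2.2 • W (bas 5) := funext (W_basis a)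
    rw [e3]
    simp only [mm_add, mm_smul]
    exact Submodule.add_mem _ (Submodule.add_mem _ (Submodule.add_mem _ (Submodule.add_mem _ (Submodule.add_mem _
      (Submodule.smul_mem _ _ (himg 0)) (Submodule.smul_mem _ _ (himg 1))) (Submodule.smul_mem _ _ (himg 2)))
      (Submodule.smul_mem _ _ (himg 3))) (Submodule.smul_mem _ _ (himg 4))) (Submodule.smul_mem _ _ (himg 5))
  · show ap (rp r (ia (ap i))) = ap (rp r i)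
    rw [ia_ap]

theorem ne_of_ap {i j : Fin 12} (h : ap i ≠ ap j) : i ≠ j := fun e => h (by rw [e])

theorem card_sub_ge : 95040 ≤ Nat.card ↥(monoSub ternaryGolayCode) := by
  set T0 := monoSub ternaryGolayCode with hT0
  let st := fun b : ArrayPt => MulAction.stabilizer (Equiv.Perm ArrayPt) b
  have hq : ∀ q : ArrayPt, ∀ j : Fin 12, q ≠ ap j → ia q ≠ j := by
    intro q j h e
    apply h
    rw [← e, ap_ia]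
  have s0 : (Nat.card ArrayPt - (∅ : Finset ArrayPt).card) * Nat.card ↥(T0 ⊓ st (ap 0)) ≤ Nat.card T0 := by
    apply chain_step
    intro q _
    obtain ⟨r, hr, h1⟩ := lvl0 (ia q)
    obtain ⟨σ, hσ, he⟩ := row_mem r hr
    exact ⟨σ, hσ, by rw [he, h1, ap_ia]⟩
  have s1 : (Nat.card ArrayPt - ({ap 0} : Finset ArrayPt).card) * Nat.card ↥((T0 ⊓ st (ap 0)) ⊓ st (ap 1)) ≤ Nat.card ↥(T0 ⊓ st (ap 0)) := by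
    apply chain_step
    intro q hq'
    simp only [Finset.mem_singleton] at hq'
    obtain ⟨r, hr, h1, h2⟩ := lvl1 (ia q) (hq q 0 hq')
    obtain ⟨σ, hσ, he⟩ := row_mem r hr
    refine ⟨σ, ⟨hσ, ?_⟩, by rw [he, h2, ap_ia]⟩
    show σ (ap 0) = ap 0
    rw [he, h1]
  have s2 : (Nat.card ArrayPt - ({ap 0, ap 1} : Finset ArrayPt).card) * Nat.card ↥(((T0 ⊓ st (ap 0)) ⊓ st (ap 1)) ⊓ st (ap 2)) ≤ Nat.card ↥((T0 ⊓ st (ap 0)) ⊓ st (ap 1)) := by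
    apply chain_step
    intro q hq'
    simp only [Finset.mem_insert, Finset.mem_singleton, not_or] at hq'
    obtain ⟨r, hr, h1, h2, h3⟩ := lvl2 (ia q) (hq q 0 hq'.1) (hq q 1 hq'.2)
    obtain ⟨σ, hσ, he⟩ := row_mem r hr
    refine ⟨σ, ⟨⟨hσ, ?_⟩, ?_⟩, by rw [he, h3, ap_ia]⟩
    · show σ (ap 0) = ap 0
      rw [he, h1]
    · show σ (ap 1) = ap 1
      rw [he, h2]
  have s3 : (Nat.card ArrayPt - ({ap 0, ap 1, ap 2} : Finset ArrayPt).card) * Nat.card ↥((((T0 ⊓ st (ap 0)) ⊓ st (ap 1)) ⊓ st (ap 2)) ⊓ st (ap 3)) ≤ Nat.card ↥(((T0 ⊓ st (ap 0)) ⊓ st (ap 1)) ⊓ st (ap 2)) := by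
    apply chain_step
    intro q hq'
    simp only [Finset.mem_insert, Finset.mem_singleton, not_or] at hq'
    obtain ⟨r, hr, h1, h2, h3, h4⟩ := lvl3 (ia q) (hq q 0 hq'.1) (hq q 1 hq'.2.1) (hq q 2 hq'.2.2)
    obtain ⟨σ, hσ, he⟩ := row_mem r hr
    refine ⟨σ, ⟨⟨⟨hσ, ?_⟩, ?_⟩, ?_⟩, by rw [he, h4, ap_ia]⟩
    · show σ (ap 0) = ap 0
      rw [he, h1]
    · show σ (ap 1) = ap 1
      rw [he, h2]
    · show σ (ap 2) = ap 2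
      rw [he, h3]
  have s4 : (Nat.card ArrayPt - ({ap 0, ap 1, ap 2, ap 3} : Finset ArrayPt).card) * Nat.card ↥(((((T0 ⊓ st (ap 0)) ⊓ st (ap 1)) ⊓ st (ap 2)) ⊓ st (ap 3)) ⊓ st (ap 4)) ≤ Nat.card ↥((((T0 ⊓ st (ap 0)) ⊓ st (ap 1)) ⊓ st (ap 2)) ⊓ st (ap 3)) := by
    apply chain_step
    intro q hq'
    simp only [Finset.mem_insert, Finset.mem_singleton, not_or] at hq'
    obtain ⟨r, hr, h1, h2, h3, h4, h5⟩ := lvl4 (ia q) (hq q 0 hq'.1) (hq q 1 hq'.2.1) (hq q 2 hq'.2.2.1) (hq q 3 hq'.2.2.2)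
    obtain ⟨σ, hσ, he⟩ := row_mem r hr
    refine ⟨σ, ⟨⟨⟨⟨hσ, ?_⟩, ?_⟩, ?_⟩, ?_⟩, by rw [he, h5, ap_ia]⟩
    · show σ (ap 0) = ap 0
      rw [he, h1]
    · show σ (ap 1) = ap 1
      rw [he, h2]
    · show σ (ap 2) = ap 2
      rw [he, h3]
    · show σ (ap 3) = ap 3
      rw [he, h4]
  have s5 : 1 ≤ Nat.card ↥(((((T0 ⊓ st (ap 0)) ⊓ st (ap 1)) ⊓ st (ap 2)) ⊓ st (ap 3)) ⊓ st (ap 4)) := Nat.card_pos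
  have hc : Nat.card ArrayPt = 12 := by
    rw [Nat.card_eq_fintype_card]
    rfl
  rw [hc] at s0 s1 s2 s3 s4
  simp only [Finset.card_empty] at s0
  have c1 : ({ap 0} : Finset ArrayPt).card = 1 := by decide
  have c2 : ({ap 0, ap 1} : Finset ArrayPt).card = 2 := by decide
  have c3 : ({ap 0, ap 1, ap 2} : Finset ArrayPt).card = 3 := by decide
  have c4 : ({ap 0, ap 1, ap 2, ap 3} : Finset ArrayPt).card = 4 := by decide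
  rw [c1] at s1
  rw [c2] at s2
  rw [c3] at s3
  rw [c4] at s4
  omega

theorem card_array : Fintype.card ArrayPt = 12 := rfl

theorem mem_supp {x : ArrayPt → ZMod 3} {p : ArrayPt} : p ∈ ternarySupport x ↔ x p ≠ 0 := by
  unfold ternarySupport
  simp

/-- A monomial automorphism permutes the hexads. -/
theorem image_hexad {σ : Equiv.Perm ArrayPt} (hσ : σ ∈ monoSub ternaryGolayCode) {h : Finset ArrayPt} (hh : h ∈ hexadSet) :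
    σ • h ∈ hexadSet := by
  obtain ⟨c, hc⟩ := mem_monoSub.mp hσ
  obtain ⟨x, hx, hs, h6⟩ := hh
  refine ⟨monomialMap σ c x, hc x hx, ?_, by rw [Finset.card_smul_finset, h6]⟩
  ext p
  rw [mem_supp, Finset.mem_smul_finset]
  show (c p : ZMod 3) * x (σ.symm p) ≠ 0 ↔ ∃ q ∈ h, σ • q = p
  constructor
  · intro hp
    refine ⟨σ.symm p, ?_, by simp⟩
    rw [← hs, mem_supp]
    intro h0
    apply hp
    rw [h0, mul_zero]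
  · rintro ⟨q, hq, rfl⟩
    rw [← hs, mem_supp] at hq
    have e : σ.symm (σ • q) = q := by simp
    rw [e]
    exact mul_ne_zero (Units.ne_zero _) hq

theorem sub_le_aut : monoSub ternaryGolayCode ≤ setSystemAut hexadSet := by
  intro σ hσ
  show σ • hexadSet = hexadSet
  apply Set.Subset.antisymm
  · rintro _ ⟨h, hh, rfl⟩
    exact image_hexad hσ hh
  · intro h hh
    refine Set.mem_smul_set.mpr ⟨σ⁻¹ • h, image_hexad (inv_mem hσ) hh, smul_inv_smul _ _⟩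

theorem sub_eq_aut : monoSub ternaryGolayCode = setSystemAut hexadSet := by
  have h := (StCert.M12.aut12_result card_array hexads_steiner).1.2
  haveI : Finite (setSystemAut hexadSet) := Nat.finite_of_card_ne_zero (by rw [h]; norm_num)
  apply Subgroup.eq_of_le_of_card_ge sub_le_aut
  rw [h]
  exact card_sub_ge

theorem main_result :
    Nat.card {f : Equiv.Perm ArrayPt × (ArrayPt → (ZMod 3)ˣ) // (∀ x ∈ ternaryGolayCode, monomialMap f.1 f.2 x ∈ ternaryGolayCode)} = 190080 ∧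
    {σ : Equiv.Perm ArrayPt | ∃ c : ArrayPt → (ZMod 3)ˣ, (∀ x ∈ ternaryGolayCode, monomialMap σ c x ∈ ternaryGolayCode)} =
      (setSystemAut {h : Finset ArrayPt | ∃ x ∈ ternaryGolayCode, ternarySupport x = h ∧ h.card = 6} : Set (Equiv.Perm ArrayPt)) := by
  refine ⟨?_, ?_⟩
  · have hd : ∀ c : ArrayPt → (ZMod 3)ˣ, (∀ x ∈ ternaryGolayCode, monomialMap 1 c x ∈ ternaryGolayCode) → ∀ i j, c i = c j := by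
      intro c h i j
      rcases sign_cases h with h1 | h1 <;> rw [h1 i, h1 j]
    have hu : Nat.card (ZMod 3)ˣ = 2 := by
      rw [Nat.card_eq_fintype_card, Fintype.card_units, ZMod.card]
    rw [card_mono _ hd, hu, sub_eq_aut, (StCert.M12.aut12_result card_array hexads_steiner).1.2]
  · rw [← sub_eq_aut]
    rfl

end CfsgLib.Ternary
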